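import Cfsg.Agent.R2.T1.N6D.T2
import Cfsg.Agent.H952.F4.Defs

/-!
# Modules of `A₆` in characteristic 2: a lower bound for the fixed vectors (helper24)

`x3 = (0 1 2)`, `y3 = (3 4 5)`, `x33 = x3 y3`, `x5 = (0 1 2 3 4)`, `Q = ⟨x3, y3⟩`, `M` a module of `A₆` over a field of
characteristic 2.

* `six_ge` : `2 dim M^Q + 2 dim M^{x5} ≤ 2 dim M^{A₆} + dim M^{x3} + dim M^{x33}`;
* `five_le_three`, `five_le_three_three` : `dim M^{x5} ≤ dim M^{x3}, dim M^{x33}`.
-/

set_option autoImplicit false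
set_option maxRecDepth 100000

namespace Cfsg.Agent.R2.T1.N7T

open Module Equiv Equiv.Perm
open Cfsg.Agent.R2.T1.N6D.Ct (dg act dec act_lt dec_act U U_InA U_act InA)
open Cfsg.Agent.H952.F4 (ev)

universe u v

namespace S6

/-! ### certificates over the field of 2 elements -/

/-- the sum as a number -/
def toB : List ℕ → ℕ
  | [] => 0
  | c :: L => Nat.xor (Nat.shiftLeft 1 c) (toB L)

/-- the bounds -/
def bndB (L : List ℕ) : Bool := L.all fun c => Nat.blt c 46656

/-- the terms of `s * R` -/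
def trmB (cn : ℕ → ℕ) (R : List ℕ) (s : ℕ) : List ℕ := R.map fun c => cn (act c s)

/-- the terms of the certificate -/
def trmsB (cn : ℕ → ℕ) (R C : List ℕ) : List ℕ := C.flatMap fun s => trmB cn R s

/-- the smallest of `b` and the `act h c` -/
def cnL : List ℕ → ℕ → ℕ → ℕ
  | [], _, b => b
  | h :: H, c, b => cnL H c (bif Nat.blt (act h c) b then act h c else b)

/-- a representative of the coset -/
def cn (H : List ℕ) (c : ℕ) : ℕ := cnL H c c

section
variable {M : Type v} [AddCommGroup M]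

/-- the value of a code -/
def PhiB (w : ℕ → M) (X : ℕ) : M := ∑ c ∈ Finset.range 46656, if X.testBit c = true then w c else 0

theorem PhiB_xor (hm : ∀ m : M, m + m = 0) (w : ℕ → M) (X Y : ℕ) : PhiB w (Nat.xor X Y) = PhiB w X + PhiB w Y := by
  unfold PhiB
  rw [← Finset.sum_add_distrib]
  refine Finset.sum_congr rfl fun c _ => ?_
  have h : (Nat.xor X Y).testBit c = (X.testBit c ^^ Y.testBit c) := Nat.testBit_xor ..
  rw [h]
  cases X.testBit c <;> cases Y.testBit c <;> simp [hm]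

theorem PhiB_single (w : ℕ → M) {c : ℕ} (hc : c < 46656) : PhiB w (Nat.shiftLeft 1 c) = w c := by
  have h : ∀ i, (Nat.shiftLeft 1 c).testBit i = (decide (i ≥ c) && (1 : ℕ).testBit (i - c)) :=
    fun i => Nat.testBit_shiftLeft ..
  unfold PhiB
  rw [Finset.sum_eq_single c]
  · rw [h, Nat.sub_self]
    simp
  · intro d _ hd
    rw [h]
    rcases lt_or_gt_of_ne hd with h1 | h1
    · rw [decide_eq_false (by omega), Bool.false_and]
      simp
    · have h2 : (1 : ℕ).testBit (d - c) = false := by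
        apply Nat.testBit_lt_two_pow
        calc 1 < 2 ^ 1 := by norm_num
          _ ≤ 2 ^ (d - c) := Nat.pow_le_pow_right (by norm_num) (by omega)
      rw [h2, Bool.and_false]
      simp
  · intro hn
    exact absurd (Finset.mem_range.2 hc) hn

theorem soundB (hm : ∀ m : M, m + m = 0) (w : ℕ → M) (L : List ℕ) (hL : bndB L = true) :
    (L.map w).sum = PhiB w (toB L) := by
  induction L with
  | nil =>
    show 0 = PhiB w 0
    unfold PhiB
    simp
  | cons c L ih =>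
    unfold bndB at hL ih
    rw [List.all_cons, Bool.and_eq_true, Nat.blt_eq] at hL
    rw [List.map_cons, List.sum_cons, ih hL.2]
    show _ = PhiB w (Nat.xor (Nat.shiftLeft 1 c) (toB L))
    rw [PhiB_xor hm, PhiB_single w hL.1]

/-- the comparison -/
def eqB (L L' : List ℕ) : Bool := bndB L && (bndB L' && Nat.beq (toB L) (toB L'))

theorem eqB_sum (hm : ∀ m : M, m + m = 0) (w : ℕ → M) {L L' : List ℕ} (h : eqB L L' = true) :
    (L.map w).sum = (L'.map w).sum := by
  unfold eqB at h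
  rw [Bool.and_eq_true, Bool.and_eq_true, Nat.beq_eq] at h
  rw [soundB hm w L h.1, soundB hm w L' h.2.1, h.2.2]

end

section
variable {F : Type u} [Field F] {M : Type v} [AddCommGroup M] [Module F M]
  (ρ : Representation F ↥(alternatingGroup (Fin 6)) M)

/-- a relation -/
noncomputable def opB (R : List ℕ) (m : M) : M := (R.map fun c => U ρ (dec c) m).sum

theorem trmB_sum {m : M} {cn : ℕ → ℕ} (hcn : ∀ c, U ρ (dec (cn c)) m = U ρ (dec c) m) (R : List ℕ)
    (hR : ∀ c ∈ R, ∃ g, InA c g) (s : ℕ) :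
    ((trmB cn R s).map fun c => U ρ (dec c) m).sum = U ρ (dec s) (opB ρ R m) := by
  induction R with
  | nil =>
    show 0 = U ρ (dec s) 0
    rw [map_zero]
  | cons c R ih =>
    obtain ⟨g, hg⟩ := hR c List.mem_cons_self
    have h1 := ih fun e he => hR e (List.mem_cons_of_mem _ he)
    unfold trmB opB at *
    rw [List.map_cons, List.map_cons, List.sum_cons, h1, List.map_cons, List.sum_cons, map_add]
    congr 1
    rw [hcn, U_act ρ hg, U_InA ρ hg, Module.End.mul_apply]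

theorem trmsB_sum {m : M} {cn : ℕ → ℕ} (hcn : ∀ c, U ρ (dec (cn c)) m = U ρ (dec c) m) (R : List ℕ)
    (hR : ∀ c ∈ R, ∃ g, InA c g) (C : List ℕ) :
    ((trmsB cn R C).map fun c => U ρ (dec c) m).sum = (C.map fun s => U ρ (dec s) (opB ρ R m)).sum := by
  induction C with
  | nil => rfl
  | cons s C ih =>
    have h1 : trmsB cn R (s :: C) = trmB cn R s ++ trmsB cn R C := rfl
    rw [h1, List.map_append, List.sum_append, ih, trmB_sum ρ hcn R hR, List.map_cons, List.sum_cons]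

theorem U_cnL {m : M} (H : List ℕ) (hH : ∀ h ∈ H, ∃ g, InA h g ∧ ρ g m = m) (c b : ℕ)
    (hb : U ρ (dec b) m = U ρ (dec c) m) : U ρ (dec (cnL H c b)) m = U ρ (dec c) m := by
  induction H generalizing b with
  | nil => exact hb
  | cons h H ih =>
    refine ih (fun e he => hH e (List.mem_cons_of_mem _ he)) _ ?_
    cases Nat.blt (act h c) b
    · rw [cond_false, hb]
    · rw [cond_true]
      obtain ⟨g, hg, hm⟩ := hH h List.mem_cons_self
      rw [U_act ρ hg, Module.End.mul_apply, hm]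

theorem U_cn {m : M} {H : List ℕ} (hH : ∀ h ∈ H, ∃ g, InA h g ∧ ρ g m = m) (c : ℕ) :
    U ρ (dec (cn H c)) m = U ρ (dec c) m := U_cnL ρ H hH c c rfl

theorem opB_append (L L' : List ℕ) (m : M) : opB ρ (L ++ L') m = opB ρ L m + opB ρ L' m := by
  unfold opB
  rw [List.map_append, List.sum_append]

end

/-! ### the elements -/

/-- the element -/
def x3 : ↥(alternatingGroup (Fin 6)) := ⟨swap 0 1 * swap 1 2, mem_alternatingGroup.2 (by decide)⟩

/-- the element -/
def y3 : ↥(alternatingGroup (Fin 6)) := ⟨swap 3 4 * swap 4 5, mem_alternatingGroup.2 (by decide)⟩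

/-- the element -/
def x5 : ↥(alternatingGroup (Fin 6)) := ⟨swap 0 1 * swap 1 2 * swap 2 3 * swap 3 4, mem_alternatingGroup.2 (by decide)⟩

/-- the element -/
def ga : ↥(alternatingGroup (Fin 6)) := ⟨swap 2 3 * swap 4 5, mem_alternatingGroup.2 (by decide)⟩

/-- the element -/
def gb : ↥(alternatingGroup (Fin 6)) := ⟨swap 2 4 * swap 4 3, mem_alternatingGroup.2 (by decide)⟩

/-- the element -/
def gs : ↥(alternatingGroup (Fin 6)) := ⟨swap 2 3 * swap 3 4, mem_alternatingGroup.2 (by decide)⟩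

/-- the codes -/
def cI : ℕ := 44790
def cX : ℕ := 44725
def cY : ℕ := 30750
def cZ : ℕ := 39865
def cA : ℕ := 38130
def cB : ℕ := 43350
def cS : ℕ := 42450

theorem hI : InA cI 1 := by
  unfold InA
  decide +kernel

theorem hX : InA cX x3 := by
  unfold InA
  decide +kernel

theorem hY : InA cY y3 := by
  unfold InA
  decide +kernel

theorem hZ : InA cZ x5 := by
  unfold InA
  decide +kernel

theorem hA : InA cA ga := by
  unfold InA
  decide +kernel

theorem hB : InA cB gb := by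
  unfold InA
  decide +kernel

theorem hS : InA cS gs := by
  unfold InA
  decide +kernel

/-- the codes of `Q` -/
def HQ : List ℕ := [cI, cX, act cX cX, cY, act cX cY, act (act cX cX) cY, act cY cY, act cX (act cY cY),
  act (act cX cX) (act cY cY)]

/-- the codes of the group of order 5 -/
def H5 : List ℕ := [cI, cZ, act cZ cZ, act (act cZ cZ) cZ, act (act (act cZ cZ) cZ) cZ]

def C01 : List ℕ := [36150, 42450, 21930, 43350, 22830, 27150, 29130, 20490, 29640, 44400, 15240, 12900, 37890,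
  41130, 14130, 41850, 14850, 18090, 30300, 25800, 12300, 17700, 35490, 21450, 12630, 34050, 13530, 19830, 25230,
  11190, 37705, 6385, 42925, 24565, 31945, 4945, 32275, 22195, 39475, 3835, 33895, 39625, 16765, 23965, 20875,
  31675, 4495, 16375, 13160, 14390, 2510, 4310, 8630, 32540, 11840, 17025]

def C02 : List ℕ := [44790, 30750, 36150, 42450, 22830, 27150, 29130, 20490, 38280, 15240, 33600, 40980, 12900,
  35400, 13800, 25680, 44550, 22950, 34830, 41130, 14130, 18090, 33030, 11430, 42180, 20580, 15000, 26340, 35490,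
  26850, 33150, 12630, 13530, 25230, 37705, 6385, 42925, 7285, 31945, 44155, 7435, 39475, 29905, 39625, 5065,
  23965, 20875, 26095, 40340, 9020, 14390, 39230]

def C11 : List ℕ := [44790, 38130, 43350, 22830, 29130, 34530, 43680, 15240, 33600, 30180, 40980, 34830, 14850,
  18090, 21150, 11430, 42180, 20580, 43080, 25800, 12300, 17700, 35490, 26850, 33150, 12630, 34050, 13530, 37705,
  6385, 42925, 7285, 22195, 3835, 29905, 39625, 7045, 16765, 19645, 23965, 35095, 24295, 31675, 3595, 4495, 16375,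
  6860, 9020, 13160, 2360, 14390, 2510, 24830, 4310, 8630, 11840, 10575, 17025]

def C12 : List ℕ := [44790, 30750, 38130, 42450, 38280, 29640, 44400, 33600, 30180, 12900, 35400, 13800, 22950,
  34830, 37890, 41130, 41850, 18090, 21150, 11430, 40740, 11580, 28830, 12630, 19830, 11190, 39865, 6385, 42925,
  24565, 7435, 32275, 33895, 5815, 39625, 5065, 41605, 7045, 19645, 3445, 35095, 5935, 20875, 3595, 40340, 6860,
  14390, 2510]

def J3 : List ℕ := [44790, 42450, 43350, 43680, 40980, 41850, 40740]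

def J33 : List ℕ := [44790, 36150, 38130, 21930, 43350, 27150, 29640, 44400, 15240, 30180, 40980, 12900, 35400,
  25680, 22950, 34830, 41130, 14130, 41850, 14850, 18090, 30300, 42180, 20580, 43080, 12300, 17700, 21450, 26850,
  34050, 13530, 6385, 24565, 29905, 40340]

/-- `a, x a, x² a` -/
def tr (a x : ℕ) : List ℕ := [a, act a x, act a (act x x)]

/-- the code of `x3 y3` -/
def cW : ℕ := act cY cX

theorem chk0 : eqB (trmsB (cn HQ) (tr cI cX) C01 ++ trmsB (cn HQ) (tr cA cW) C02) [cn HQ cS, cn HQ cI] = true := by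
  decide +kernel
theorem chk1 : eqB (trmsB (cn HQ) (tr cA cX) C01 ++ trmsB (cn HQ) (tr cB cW) C02) [] = true := by
  decide +kernel
theorem chk2 : eqB (trmsB (cn H5) (tr cI cX) C01) [] = true := by
  decide +kernel
theorem chk3 : eqB (trmsB (cn H5) (tr cI cW) C02) [] = true := by
  decide +kernel
theorem chk4 : eqB (trmsB (cn HQ) (tr cI cX) C11 ++ trmsB (cn HQ) (tr cA cW) C12) [] = true := by
  decide +kernel
theorem chk5 : eqB (trmsB (cn HQ) (tr cA cX) C11 ++ trmsB (cn HQ) (tr cB cW) C12) [cn HQ cS, cn HQ cI] = true := by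
  decide +kernel
theorem chk6 : eqB (trmsB (cn H5) (tr cI cX) C11) [] = true := by
  decide +kernel
theorem chk7 : eqB (trmsB (cn H5) (tr cI cW) C12) [] = true := by
  decide +kernel
theorem chk8 : eqB (trmsB (cn H5) (tr cI cX) J3) [cn H5 cI] = true := by
  decide +kernel
theorem chk9 : eqB (trmsB (cn H5) (tr cI cW) J33) [cn H5 cI] = true := by
  decide +kernel

theorem hW : InA cW (x3 * y3) := hY.act hX

section
variable {F : Type u} [Field F] {M : Type v} [AddCommGroup M] [Module F M]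
  (ρ : Representation F ↥(alternatingGroup (Fin 6)) M)

/-- `1 + x + x²` -/
noncomputable def e3 (x : ↥(alternatingGroup (Fin 6))) : Module.End F M := 1 + ρ x + ρ (x * x)

theorem opB_tr {a x : ℕ} {g h : ↥(alternatingGroup (Fin 6))} (ha : InA a g) (hx : InA x h) (m : M) :
    opB ρ (tr a x) m = e3 ρ h (ρ g m) := by
  unfold opB tr e3
  simp only [List.map_cons, List.map_nil, List.sum_cons, List.sum_nil]
  rw [U_InA ρ ha, U_InA ρ (ha.act hx), U_InA ρ (ha.act (hx.act hx)), LinearMap.add_apply, LinearMap.add_apply,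
    Module.End.one_apply, ← Module.End.mul_apply, ← Module.End.mul_apply, ← map_mul, ← map_mul]
  abel

theorem trInA {a x : ℕ} {g h : ↥(alternatingGroup (Fin 6))} (ha : InA a g) (hx : InA x h) :
    ∀ c ∈ tr a x, ∃ g, InA c g := by
  intro c hc
  simp only [tr, List.mem_cons, List.not_mem_nil, or_false] at hc
  rcases hc with rfl | rfl | rfl
  · exact ⟨_, ha⟩
  · exact ⟨_, ha.act hx⟩
  · exact ⟨_, ha.act (hx.act hx)⟩

theorem fix_mul {m : M} {g h : ↥(alternatingGroup (Fin 6))} (hg : ρ g m = m) (hh : ρ h m = m) :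
    ρ (g * h) m = m := by
  rw [map_mul, Module.End.mul_apply, hh, hg]

theorem fix_inv {m : M} {g : ↥(alternatingGroup (Fin 6))} (hg : ρ g m = m) : ρ g⁻¹ m = m := by
  have h1 : ρ g⁻¹ (ρ g m) = m := by
    rw [← Module.End.mul_apply, ← map_mul, inv_mul_cancel, map_one, Module.End.one_apply]
  rwa [hg] at h1

theorem fixQ {m : M} (hx : ρ x3 m = m) (hy : ρ y3 m = m) : ∀ h ∈ HQ, ∃ g, InA h g ∧ ρ g m = m := by
  have h1 : ρ (1 : ↥(alternatingGroup (Fin 6))) m = m := by rw [map_one, Module.End.one_apply]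
  have hxx := fix_mul ρ hx hx
  have hyy := fix_mul ρ hy hy
  intro h hh
  simp only [HQ, List.mem_cons, List.not_mem_nil, or_false] at hh
  rcases hh with rfl | rfl | rfl | rfl | rfl | rfl | rfl | rfl | rfl
  · exact ⟨_, hI, h1⟩
  · exact ⟨_, hX, hx⟩
  · exact ⟨_, hX.act hX, hxx⟩
  · exact ⟨_, hY, hy⟩
  · exact ⟨_, hX.act hY, fix_mul ρ hy hx⟩
  · exact ⟨_, (hX.act hX).act hY, fix_mul ρ hy hxx⟩
  · exact ⟨_, hY.act hY, hyy⟩
  · exact ⟨_, hX.act (hY.act hY), fix_mul ρ hyy hx⟩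
  · exact ⟨_, (hX.act hX).act (hY.act hY), fix_mul ρ hyy hxx⟩

theorem fix5 {m : M} (hz : ρ x5 m = m) : ∀ h ∈ H5, ∃ g, InA h g ∧ ρ g m = m := by
  have h1 : ρ (1 : ↥(alternatingGroup (Fin 6))) m = m := by rw [map_one, Module.End.one_apply]
  have h2 := fix_mul ρ hz hz
  have h3 := fix_mul ρ hz h2
  have h4 := fix_mul ρ hz h3
  intro h hh
  simp only [H5, List.mem_cons, List.not_mem_nil, or_false] at hh
  rcases hh with rfl | rfl | rfl | rfl | rfl
  · exact ⟨_, hI, h1⟩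
  · exact ⟨_, hZ, hz⟩
  · exact ⟨_, hZ.act hZ, h2⟩
  · exact ⟨_, (hZ.act hZ).act hZ, h3⟩
  · exact ⟨_, ((hZ.act hZ).act hZ).act hZ, h4⟩

theorem pair (h2 : ∀ m : M, m + m = 0) {m : M} {H : List ℕ} (hH : ∀ h ∈ H, ∃ g, InA h g ∧ ρ g m = m)
    {R R' C D T : List ℕ} (hR : ∀ c ∈ R, ∃ g, InA c g) (hR' : ∀ c ∈ R', ∃ g, InA c g)
    (h : eqB (trmsB (cn H) R C ++ trmsB (cn H) R' D) T = true) :
    (C.map fun s => U ρ (dec s) (opB ρ R m)).sum + (D.map fun s => U ρ (dec s) (opB ρ R' m)).sum =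
      (T.map fun c => U ρ (dec c) m).sum := by
  rw [← trmsB_sum ρ (U_cn ρ hH) R hR C, ← trmsB_sum ρ (U_cn ρ hH) R' hR' D, ← List.sum_append, ← List.map_append]
  exact eqB_sum h2 _ h

theorem single (h2 : ∀ m : M, m + m = 0) {m : M} {H : List ℕ} (hH : ∀ h ∈ H, ∃ g, InA h g ∧ ρ g m = m)
    {R C T : List ℕ} (hR : ∀ c ∈ R, ∃ g, InA c g) (h : eqB (trmsB (cn H) R C) T = true) :
    (C.map fun s => U ρ (dec s) (opB ρ R m)).sum = (T.map fun c => U ρ (dec c) m).sum := by
  rw [← trmsB_sum ρ (U_cn ρ hH) R hR C]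
  exact eqB_sum h2 _ h

theorem sum3 (C : List ℕ) (a b c : M) : (C.map fun s => U ρ (dec s) (a + b + c)).sum =
    (C.map fun s => U ρ (dec s) a).sum + (C.map fun s => U ρ (dec s) b).sum + (C.map fun s => U ρ (dec s) c).sum := by
  rw [← List.sum_map_add, ← List.sum_map_add]
  simp only [map_add]

theorem step (h2 : ∀ m : M, m + m = 0) {v1 v2 w w' : M} (hx1 : ρ x3 v1 = v1) (hy1 : ρ y3 v1 = v1)
    (hx2 : ρ x3 v2 = v2) (hy2 : ρ y3 v2 = v2) (hw : ρ x5 w = w) (hw' : ρ x5 w' = w')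
    (r1 : e3 ρ x3 (v1 + ρ ga v2 + w) = 0) (r2 : e3 ρ (x3 * y3) (ρ ga v1 + ρ gb v2 + w') = 0) :
    ρ gs v1 = v1 ∧ ρ gs v2 = v2 := by
  have one : ∀ m : M, ρ (1 : ↥(alternatingGroup (Fin 6))) m = m := fun m => by rw [map_one, Module.End.one_apply]
  have q1 : opB ρ (tr cI cX) v1 + opB ρ (tr cA cX) v2 + opB ρ (tr cI cX) w = 0 := by
    rw [opB_tr ρ hI hX, opB_tr ρ hA hX, opB_tr ρ hI hX, one, one, ← map_add, ← map_add, r1]
  have q2 : opB ρ (tr cA cW) v1 + opB ρ (tr cB cW) v2 + opB ρ (tr cI cW) w' = 0 := by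
    rw [opB_tr ρ hA hW, opB_tr ρ hB hW, opB_tr ρ hI hW, one, ← map_add, ← map_add, r2]
  have z : ∀ C : List ℕ, (C.map fun s => U ρ (dec s) (0 : M)).sum = 0 := by
    intro C
    simp
  have f1 := fixQ ρ hx1 hy1
  have f2 := fixQ ρ hx2 hy2
  have f3 := fix5 ρ hw
  have f4 := fix5 ρ hw'
  have tT : ∀ {m : M}, (∀ h ∈ HQ, ∃ g, InA h g ∧ ρ g m = m) →
      (([cn HQ cS, cn HQ cI] : List ℕ).map fun c => U ρ (dec c) m).sum = ρ gs m + m := by
    intro m hm
    simp only [List.map_cons, List.map_nil, List.sum_cons, List.sum_nil]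
    rw [U_cn ρ hm, U_cn ρ hm, U_InA ρ hS, U_InA ρ hI, one, add_zero]
  have key : ∀ m : M, ρ gs m + m = 0 → ρ gs m = m := by
    intro m hm
    exact add_right_cancel (hm.trans (h2 m).symm)
  have n : ∀ m : M, ((([] : List ℕ)).map fun c => U ρ (dec c) m).sum = 0 := fun _ => rfl
  constructor
  · apply key
    have e1 := sum3 ρ C01 (opB ρ (tr cI cX) v1) (opB ρ (tr cA cX) v2) (opB ρ (tr cI cX) w)
    have e2 := sum3 ρ C02 (opB ρ (tr cA cW) v1) (opB ρ (tr cB cW) v2) (opB ρ (tr cI cW) w')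
    rw [q1, z] at e1
    rw [q2, z] at e2
    have p0 := pair ρ h2 f1 (trInA hI hX) (trInA hA hW) chk0
    have p1 := pair ρ h2 f2 (trInA hA hX) (trInA hB hW) chk1
    have p2 := single ρ h2 f3 (trInA hI hX) chk2
    have p3 := single ρ h2 f4 (trInA hI hW) chk3
    rw [tT f1] at p0
    rw [n] at p1 p2 p3
    rw [← p0]
    rw [p2, add_zero] at e1
    rw [p3, add_zero] at e2
    have e3 := congrArg₂ (· + ·) e1 e2
    simp only [add_zero] at e3
    rw [add_add_add_comm, p1, add_zero] at e3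
    exact e3.symm
  · apply key
    have e1 := sum3 ρ C11 (opB ρ (tr cI cX) v1) (opB ρ (tr cA cX) v2) (opB ρ (tr cI cX) w)
    have e2 := sum3 ρ C12 (opB ρ (tr cA cW) v1) (opB ρ (tr cB cW) v2) (opB ρ (tr cI cW) w')
    rw [q1, z] at e1
    rw [q2, z] at e2
    have p0 := pair ρ h2 f1 (trInA hI hX) (trInA hA hW) chk4
    have p1 := pair ρ h2 f2 (trInA hA hX) (trInA hB hW) chk5
    have p2 := single ρ h2 f3 (trInA hI hX) chk6
    have p3 := single ρ h2 f4 (trInA hI hW) chk7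
    rw [tT f2] at p1
    rw [n] at p0 p2 p3
    rw [← p1]
    rw [p2, add_zero] at e1
    rw [p3, add_zero] at e2
    have e3 := congrArg₂ (· + ·) e1 e2
    simp only [add_zero] at e3
    rw [add_add_add_comm, p0, zero_add] at e3
    exact e3.symm

theorem inj3 (h2 : ∀ m : M, m + m = 0) {w : M} (hw : ρ x5 w = w) (r : e3 ρ x3 w = 0) : w = 0 := by
  have one : ∀ m : M, ρ (1 : ↥(alternatingGroup (Fin 6))) m = m := fun m => by rw [map_one, Module.End.one_apply]
  have p := single ρ h2 (fix5 ρ hw) (trInA hI hX) chk8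
  have q : opB ρ (tr cI cX) w = 0 := by
    rw [opB_tr ρ hI hX, one, r]
  rw [q] at p
  simp only [map_zero, List.map_cons, List.map_nil, List.sum_cons, List.sum_nil, add_zero] at p
  rw [U_cn ρ (fix5 ρ hw), U_InA ρ hI, one] at p
  rw [← p]
  simp

theorem inj33 (h2 : ∀ m : M, m + m = 0) {w : M} (hw : ρ x5 w = w) (r : e3 ρ (x3 * y3) w = 0) : w = 0 := by
  have one : ∀ m : M, ρ (1 : ↥(alternatingGroup (Fin 6))) m = m := fun m => by rw [map_one, Module.End.one_apply]
  have p := single ρ h2 (fix5 ρ hw) (trInA hI hW) chk9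
  have q : opB ρ (tr cI cW) w = 0 := by
    rw [opB_tr ρ hI hW, one, r]
  rw [q] at p
  simp only [map_zero, List.map_cons, List.map_nil, List.sum_cons, List.sum_nil, add_zero] at p
  rw [U_cn ρ (fix5 ρ hw), U_InA ρ hI, one] at p
  rw [← p]
  simp

end

end S6


section
variable {F : Type u} [Field F] {M : Type v} [AddCommGroup M] [Module F M]
  (ρ : Representation F ↥(alternatingGroup (Fin 6)) M)

open S6

theorem add_self_zero (h2 : (2 : F) = 0) (m : M) : m + m = 0 := by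
  rw [← two_smul F m, h2, zero_smul]

theorem x3_gs : x3 * gs = N6D.z5 := by
  apply Subtype.ext
  decide +kernel

theorem y3_inv : y3⁻¹ = N6D.I2.x2 := by
  apply Subtype.ext
  decide +kernel

theorem x3_cube : x3 * (x3 * x3) = 1 := by
  apply Subtype.ext
  decide +kernel

theorem x33_cube : (x3 * y3) * ((x3 * y3) * (x3 * y3)) = 1 := by
  apply Subtype.ext
  decide +kernel

theorem fix_all {v : M} (hx : ρ x3 v = v) (hy : ρ y3 v = v) (hs : ρ gs v = v) : v ∈ ρ.invariants := by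
  intro g
  have h := N6D.I2.gen (H := ⟨⟨⟨{g | ρ g v = v}, fun ha hb => fix_mul ρ ha hb⟩, by
    show ρ 1 v = v
    rw [map_one, Module.End.one_apply]⟩, fun ha => fix_inv ρ ha⟩) (by
      show ρ N6D.z5 v = v
      rw [← x3_gs]
      exact fix_mul ρ hx hs) (by
      show ρ N6D.I2.x2 v = v
      rw [← y3_inv]
      exact fix_inv ρ hy) g
  exact h

theorem e3_fix {x : ↥(alternatingGroup (Fin 6))} (hx : x * (x * x) = 1) (m : M) : ρ x (e3 ρ x m) = e3 ρ x m := by
  unfold e3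
  simp only [LinearMap.add_apply, Module.End.one_apply, map_add]
  rw [← Module.End.mul_apply (ρ x), ← Module.End.mul_apply (ρ x), ← map_mul, ← map_mul, hx, map_one,
    Module.End.one_apply]
  abel

/-- the fixed vectors of `Q` -/
def FQ : Submodule F M := LinearMap.ker (ρ x3 - 1) ⊓ LinearMap.ker (ρ y3 - 1)

theorem mem_ker_sub {T : Module.End F M} {v : M} : v ∈ LinearMap.ker (T - 1) ↔ T v = v := by
  rw [LinearMap.mem_ker, LinearMap.sub_apply, Module.End.one_apply, sub_eq_zero]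

theorem mem_FQ {v : M} : v ∈ FQ ρ ↔ ρ x3 v = v ∧ ρ y3 v = v := by
  unfold FQ
  rw [Submodule.mem_inf, mem_ker_sub, mem_ker_sub]

theorem ev_ker (T : Module.End F M) : ev T 1 = finrank F ↥(LinearMap.ker (T - 1)) := by
  unfold ev
  rw [Module.End.eigenspace_def, one_smul]

/-- the map -/
noncomputable def Xi : (↥(FQ ρ) × ↥(FQ ρ)) × (↥(LinearMap.ker (ρ x5 - 1)) × ↥(LinearMap.ker (ρ x5 - 1))) →ₗ[F]
    ↥(LinearMap.ker (ρ x3 - 1)) × ↥(LinearMap.ker (ρ (x3 * y3) - 1)) where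
  toFun p := (⟨e3 ρ x3 ((p.1.1 : M) + ρ ga (p.1.2 : M) + (p.2.1 : M)), mem_ker_sub.2 (e3_fix ρ x3_cube _)⟩,
    ⟨e3 ρ (x3 * y3) (ρ ga (p.1.1 : M) + ρ gb (p.1.2 : M) + (p.2.2 : M)), mem_ker_sub.2 (e3_fix ρ x33_cube _)⟩)
  map_add' p q := by
    refine Prod.ext (Subtype.ext ?_) (Subtype.ext ?_)
    · show e3 ρ x3 (((p.1.1 : M) + (q.1.1 : M)) + ρ ga ((p.1.2 : M) + (q.1.2 : M)) + ((p.2.1 : M) + (q.2.1 : M))) =
        e3 ρ x3 ((p.1.1 : M) + ρ ga (p.1.2 : M) + (p.2.1 : M)) + e3 ρ x3 ((q.1.1 : M) + ρ ga (q.1.2 : M) + (q.2.1 : M))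
      rw [← map_add, map_add (ρ ga)]
      congr 1
      abel
    · show e3 ρ (x3 * y3) (ρ ga ((p.1.1 : M) + (q.1.1 : M)) + ρ gb ((p.1.2 : M) + (q.1.2 : M)) +
          ((p.2.2 : M) + (q.2.2 : M))) =
        e3 ρ (x3 * y3) (ρ ga (p.1.1 : M) + ρ gb (p.1.2 : M) + (p.2.2 : M)) +
          e3 ρ (x3 * y3) (ρ ga (q.1.1 : M) + ρ gb (q.1.2 : M) + (q.2.2 : M))
      rw [← map_add, map_add (ρ ga), map_add (ρ gb)]
      congr 1
      abel
  map_smul' c p := by
    refine Prod.ext (Subtype.ext ?_) (Subtype.ext ?_)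
    · show e3 ρ x3 (c • (p.1.1 : M) + ρ ga (c • (p.1.2 : M)) + c • (p.2.1 : M)) =
        c • e3 ρ x3 ((p.1.1 : M) + ρ ga (p.1.2 : M) + (p.2.1 : M))
      rw [← map_smul, map_smul (ρ ga), smul_add, smul_add]
    · show e3 ρ (x3 * y3) (ρ ga (c • (p.1.1 : M)) + ρ gb (c • (p.1.2 : M)) + c • (p.2.2 : M)) =
        c • e3 ρ (x3 * y3) (ρ ga (p.1.1 : M) + ρ gb (p.1.2 : M) + (p.2.2 : M))
      rw [← map_smul, map_smul (ρ ga), map_smul (ρ gb), smul_add, smul_add]

theorem Xi_ker (h2 : (2 : F) = 0) {p : (↥(FQ ρ) × ↥(FQ ρ)) × (↥(LinearMap.ker (ρ x5 - 1)) × ↥(LinearMap.ker (ρ x5 - 1)))}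
    (hp : p ∈ LinearMap.ker (Xi ρ)) : (p.1.1 : M) ∈ ρ.invariants ∧ (p.1.2 : M) ∈ ρ.invariants := by
  have h := LinearMap.mem_ker.1 hp
  have r1 : e3 ρ x3 ((p.1.1 : M) + ρ ga (p.1.2 : M) + (p.2.1 : M)) = 0 := congrArg Subtype.val (congrArg Prod.fst h)
  have r2 : e3 ρ (x3 * y3) (ρ ga (p.1.1 : M) + ρ gb (p.1.2 : M) + (p.2.2 : M)) = 0 :=
    congrArg Subtype.val (congrArg Prod.snd h)
  have a := (mem_FQ ρ).1 p.1.1.2
  have b := (mem_FQ ρ).1 p.1.2.2
  have s := step ρ (add_self_zero h2) a.1 a.2 b.1 b.2 (mem_ker_sub.1 p.2.1.2) (mem_ker_sub.1 p.2.2.2) r1 r2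
  exact ⟨fix_all ρ a.1 a.2 s.1, fix_all ρ b.1 b.2 s.2⟩

/-- **the bound** -/
theorem six_ge [FiniteDimensional F M] (h2 : (2 : F) = 0) :
    2 * finrank F ↥(FQ ρ) + 2 * ev (ρ x5) 1 ≤ 2 * finrank F ↥ρ.invariants + ev (ρ x3) 1 + ev (ρ (x3 * y3)) 1 := by
  have h1 := LinearMap.finrank_range_add_finrank_ker (Xi ρ)
  have h3 : finrank F ↥(LinearMap.range (Xi ρ)) ≤ ev (ρ x3) 1 + ev (ρ (x3 * y3)) 1 := by
    refine le_trans (Submodule.finrank_le _) ?_
    rw [Module.finrank_prod, ev_ker, ev_ker]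
  have h4 : finrank F ↥(LinearMap.ker (Xi ρ)) ≤ 2 * finrank F ↥ρ.invariants := by
    let f : ↥(LinearMap.ker (Xi ρ)) →ₗ[F] ↥ρ.invariants × ↥ρ.invariants :=
      { toFun := fun p => (⟨p.1.1.1, (Xi_ker ρ h2 p.2).1⟩, ⟨p.1.1.2, (Xi_ker ρ h2 p.2).2⟩)
        map_add' := fun p q => rfl
        map_smul' := fun c p => rfl }
    have hf : Function.Injective f := by
      rw [← LinearMap.ker_eq_bot, LinearMap.ker_eq_bot']
      rintro ⟨p, hp⟩ h0
      have a1 : (p.1.1 : M) = 0 := congrArg Subtype.val (congrArg Prod.fst h0)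
      have a2 : (p.1.2 : M) = 0 := congrArg Subtype.val (congrArg Prod.snd h0)
      have h := LinearMap.mem_ker.1 hp
      have r1 : e3 ρ x3 ((p.1.1 : M) + ρ ga (p.1.2 : M) + (p.2.1 : M)) = 0 := congrArg Subtype.val (congrArg Prod.fst h)
      have r2 : e3 ρ (x3 * y3) (ρ ga (p.1.1 : M) + ρ gb (p.1.2 : M) + (p.2.2 : M)) = 0 :=
        congrArg Subtype.val (congrArg Prod.snd h)
      rw [a1, a2, map_zero, add_zero, zero_add] at r1
      rw [a1, a2, map_zero, map_zero, add_zero, zero_add] at r2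
      have b1 := inj3 ρ (add_self_zero h2) (mem_ker_sub.1 p.2.1.2) r1
      have b2 := inj33 ρ (add_self_zero h2) (mem_ker_sub.1 p.2.2.2) r2
      apply Subtype.ext
      exact Prod.ext (Prod.ext (Subtype.ext a1) (Subtype.ext a2)) (Prod.ext (Subtype.ext b1) (Subtype.ext b2))
    have h5 := LinearMap.finrank_le_finrank_of_injective hf
    rw [Module.finrank_prod] at h5
    omega
  rw [Module.finrank_prod, Module.finrank_prod, Module.finrank_prod, ← ev_ker] at h1
  omega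

theorem five_le_three [FiniteDimensional F M] (h2 : (2 : F) = 0) : ev (ρ x5) 1 ≤ ev (ρ x3) 1 := by
  rw [ev_ker, ev_ker]
  let f : ↥(LinearMap.ker (ρ x5 - 1)) →ₗ[F] ↥(LinearMap.ker (ρ x3 - 1)) :=
    (e3 ρ x3 ∘ₗ (LinearMap.ker (ρ x5 - 1)).subtype).codRestrict _ fun m => mem_ker_sub.2 (e3_fix ρ x3_cube _)
  refine LinearMap.finrank_le_finrank_of_injective (f := f) ?_
  rw [← LinearMap.ker_eq_bot, LinearMap.ker_eq_bot']
  intro m hm
  exact Subtype.ext (inj3 ρ (add_self_zero h2) (mem_ker_sub.1 m.2) (congrArg Subtype.val hm))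

theorem five_le_three_three [FiniteDimensional F M] (h2 : (2 : F) = 0) : ev (ρ x5) 1 ≤ ev (ρ (x3 * y3)) 1 := by
  rw [ev_ker, ev_ker]
  let f : ↥(LinearMap.ker (ρ x5 - 1)) →ₗ[F] ↥(LinearMap.ker (ρ (x3 * y3) - 1)) :=
    (e3 ρ (x3 * y3) ∘ₗ (LinearMap.ker (ρ x5 - 1)).subtype).codRestrict _ fun m => mem_ker_sub.2 (e3_fix ρ x33_cube _)
  refine LinearMap.finrank_le_finrank_of_injective (f := f) ?_
  rw [← LinearMap.ker_eq_bot, LinearMap.ker_eq_bot']
  intro m hm
  exact Subtype.ext (inj33 ρ (add_self_zero h2) (mem_ker_sub.1 m.2) (congrArg Subtype.val hm))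

end

end Cfsg.Agent.R2.T1.N7T
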